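import Mathlib

/-! A frame in a positive lattice of rank 24 with the counts of short vectors of the Leech lattice. -/

set_option autoImplicit false

open Finset Matrix

namespace CfsgLib.LeechUnique

abbrev Vec : Type := Fin 24 → ℤ

variable (B : Matrix (Fin 24) (Fin 24) ℤ)

/-- The bilinear form of the matrix. -/
def ip (x y : Vec) : ℤ := x ⬝ᵥ (B *ᵥ y)

theorem ip_add_left (x y z : Vec) : ip B (x + y) z = ip B x z + ip B y z := add_dotProduct x y _

theorem ip_add_right (x y z : Vec) : ip B x (y + z) = ip B x y + ip B x z := by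
  rw [ip, mulVec_add, dotProduct_add]; rfl

theorem ip_smul_left (k : ℤ) (x y : Vec) : ip B (k • x) y = k * ip B x y := by
  rw [ip, smul_dotProduct]; rfl

theorem ip_smul_right (k : ℤ) (x y : Vec) : ip B x (k • y) = k * ip B x y := by
  rw [ip, mulVec_smul, dotProduct_smul]; rfl

theorem ip_sum_left {ι : Type*} (s : Finset ι) (f : ι → Vec) (y : Vec) :
    ip B (∑ i ∈ s, f i) y = ∑ i ∈ s, ip B (f i) y := sum_dotProduct s f _

theorem ip_symm (hB : B.IsSymm) (x y : Vec) : ip B x y = ip B y x := by
  rw [ip, ip, dotProduct_mulVec, dotProduct_comm, ← mulVec_transpose, hB.eq]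

/-- The hypotheses on the form. -/
structure Good : Prop where
  symm : B.IsSymm
  pos : ∀ x : Vec, x ≠ 0 → 0 < ip B x x
  even : ∀ x : Vec, (2 : ℤ) ∣ ip B x x
  no_two : ∀ x : Vec, ip B x x ≠ 2

variable {B}

theorem Good.four_le (h : Good B) {x : Vec} (hx : x ≠ 0) : 4 ≤ ip B x x := by
  have h1 := h.pos x hx; have h2 := h.even x; have h3 := h.no_two x
  omega

/-- The class of a vector modulo two. -/
def cls (x : Vec) : Fin 24 → ZMod 2 := fun i => (x i : ZMod 2)

theorem exists_two_of_cls {x y : Vec} (hc : cls x = cls y) : ∃ z : Vec, x = y + (2 : ℤ) • z := by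
  refine ⟨fun i => (x i - y i) / 2, funext fun i => ?_⟩
  have h1 : ((x i - y i : ℤ) : ZMod 2) = 0 := by
    rw [Int.cast_sub, sub_eq_zero]; exact congrFun hc i
  have h2 := (ZMod.intCast_zmod_eq_zero_iff_dvd _ 2).1 h1
  simp only [Pi.add_apply, Pi.smul_apply, smul_eq_mul]
  omega

theorem Good.short (h : Good B) {x y : Vec} (hx : ip B x x ≤ 8) (hy : ip B y y ≤ 8)
    (hc : cls x = cls y) : x = y ∨ x = -y ∨ (ip B x x = 8 ∧ ip B y y = 8 ∧ ip B x y = 0) := by
  by_cases h1 : x = y
  · exact Or.inl h1
  by_cases h2 : x = -y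
  · exact Or.inr (Or.inl h2)
  refine Or.inr (Or.inr ?_)
  obtain ⟨z, rfl⟩ := exists_two_of_cls hc
  have hz : z ≠ 0 := fun e => h1 (by simp [e])
  have hw : y + z ≠ 0 := fun e => h2 (by
    rw [eq_neg_of_add_eq_zero_right e]; funext i; simp; ring)
  have a1 := h.four_le hz
  have a2 := h.four_le hw
  simp only [ip_add_left, ip_add_right, ip_smul_left, ip_smul_right, ip_symm B h.symm z y] at a2 hx ⊢
  omega

theorem Good.orth_indep (h : Good B) {ι : Type*} (v : ι → Vec) (hne : ∀ i, v i ≠ 0)
    (horth : ∀ i j, i ≠ j → ip B (v i) (v j) = 0) : LinearIndependent ℤ v := by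
  refine linearIndependent_iff'.2 fun s g hg j hj => ?_
  have h0 : ip B (∑ i ∈ s, g i • v i) (v j) = 0 := by rw [hg]; simp [ip]
  simp only [ip_sum_left, ip_smul_left] at h0
  rw [sum_eq_single j (fun i _ hi => by rw [horth i j hi, mul_zero]) (fun h' => absurd hj h')] at h0
  exact (mul_eq_zero.1 h0).resolve_right (h.pos _ (hne j)).ne'

theorem Good.orth_card (h : Good B) {S : Finset Vec} (hne : ∀ x ∈ S, x ≠ 0)
    (horth : ∀ x ∈ S, ∀ y ∈ S, x ≠ y → ip B x y = 0) : S.card ≤ 24 := by
  have hl := h.orth_indep (fun x : S => (x : Vec)) (fun x => hne x.1 x.2)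
    (fun i j hij => horth i.1 i.2 j.1 j.2 fun e => hij (Subtype.ext e))
  have := hl.fintype_card_le_finrank
  rwa [Fintype.card_coe, Module.finrank_pi, Fintype.card_fin] at this

/-- A frame: 24 orthogonal vectors of norm 8 in one class modulo two. -/
def IsFrame (B : Matrix (Fin 24) (Fin 24) ℤ) (v : Fin 24 → Vec) : Prop :=
  (∀ i, ip B (v i) (v i) = 8) ∧ (∀ i j, i ≠ j → ip B (v i) (v j) = 0) ∧ ∀ i, cls (v i) = cls (v 0)

theorem exists_frame (h : Good B) (h4 : {x : Vec | ip B x x = 4}.ncard = 196560)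
    (h6 : {x : Vec | ip B x x = 6}.ncard = 16773120) (h8 : {x : Vec | ip B x x = 8}.ncard = 398034000) :
    ∃ v : Fin 24 → Vec, IsFrame B v := by
  have hfin : ∀ {n : ℤ}, {x : Vec | ip B x x = n}.ncard ≠ 0 → {x : Vec | ip B x x = n}.Finite :=
    fun hn => Set.finite_of_ncard_ne_zero hn
  have f4 := hfin (n := 4) (by rw [h4]; norm_num)
  have f6 := hfin (n := 6) (by rw [h6]; norm_num)
  have f8 := hfin (n := 8) (by rw [h8]; norm_num)
  rw [Set.ncard_eq_toFinset_card _ f4] at h4
  rw [Set.ncard_eq_toFinset_card _ f6] at h6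
  rw [Set.ncard_eq_toFinset_card _ f8] at h8
  set S4 := f4.toFinset with e4
  set S6 := f6.toFinset with e6
  set S8 := f8.toFinset with e8
  have m4 : ∀ x, x ∈ S4 ↔ ip B x x = 4 := fun x => by simp [e4]
  have m6 : ∀ x, x ∈ S6 ↔ ip B x x = 6 := fun x => by simp [e6]
  have m8 : ∀ x, x ∈ S8 ↔ ip B x x = 8 := fun x => by simp [e8]
  by_contra hno
  push Not at hno
  have hsmall : ∀ (n : ℤ) (S : Finset Vec), (∀ x ∈ S, ip B x x = n) → n < 8 →
      S.card ≤ 2 * (S.image cls).card := by
    intro n S hS hn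
    refine card_le_mul_card_image S 2 fun c hc => ?_
    obtain ⟨y, hy, rfl⟩ := mem_image.1 hc
    calc (S.filter fun x => cls x = cls y).card ≤ ({y, -y} : Finset Vec).card := by
          refine card_le_card fun x hx => ?_
          obtain ⟨hx1, hx2⟩ := mem_filter.1 hx
          rcases h.short (by rw [hS x hx1]; omega) (by rw [hS y hy]; omega) hx2 with e | e | ⟨e, -, -⟩
          · simp [e]
          · simp [e]
          · rw [hS x hx1] at e; omega
      _ ≤ 2 := card_le_two
  have hbig : ∀ c ∈ S8.image cls, (S8.filter fun x => cls x = c).card < 48 := by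
    intro c hc
    set F := S8.filter fun x => cls x = c with hF
    obtain ⟨S, hS, hmax⟩ := exists_max_image
      (F.powerset.filter fun S => ∀ x ∈ S, ∀ y ∈ S, x ≠ y → ip B x y = 0) Finset.card
      ⟨∅, by simp⟩
    simp only [mem_filter, mem_powerset] at hS hmax
    have hne : ∀ x ∈ S, x ≠ 0 := fun x hx e => by
      have := (m8 x).1 (mem_filter.1 (hS.1 hx)).1
      rw [e] at this; simp [ip] at this
    have h24 := h.orth_card hne hS.2
    have hcov : F ⊆ S ∪ S.image (fun x => -x) := by
      intro y hy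
      by_contra hy'
      simp only [mem_union, mem_image, not_or, not_exists, not_and] at hy'
      have hins : insert y S ⊆ F ∧ ∀ a ∈ insert y S, ∀ b ∈ insert y S, a ≠ b → ip B a b = 0 := by
        refine ⟨insert_subset hy hS.1, ?_⟩
        have key : ∀ b ∈ S, ip B y b = 0 := fun b hb => by
          obtain ⟨hy1, hy2⟩ := mem_filter.1 hy
          obtain ⟨hb1, hb2⟩ := mem_filter.1 (hS.1 hb)
          rcases h.short ((m8 y).1 hy1).le ((m8 b).1 hb1).le (hy2.trans hb2.symm) with e | e | e
          · exact absurd (e ▸ hb) hy'.1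
          · exact absurd e.symm (hy'.2 b hb)
          · exact e.2.2
        intro a ha b hb hab
        rcases mem_insert.1 ha with rfl | ha' <;> rcases mem_insert.1 hb with rfl | hb'
        · exact absurd rfl hab
        · exact key b hb'
        · rw [ip_symm B h.symm]; exact key a ha'
        · exact hS.2 a ha' b hb' hab
      have := hmax _ hins
      rw [card_insert_of_notMem hy'.1] at this
      omega
    have hFc := (card_le_card hcov).trans (card_union_le _ _)
    have := card_image_le (s := S) (f := fun x => -x)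
    rcases Nat.lt_or_ge S.card 24 with hlt | hge
    · omega
    · exfalso
      have hS24 : Fintype.card {x // x ∈ S} = 24 := by rw [Fintype.card_coe]; omega
      let ι := (Fintype.equivFinOfCardEq hS24).symm
      refine hno (fun i => (ι i).1) ⟨fun i => (m8 _).1 (mem_filter.1 (hS.1 (ι i).2)).1,
        fun i j hij => hS.2 _ (ι i).2 _ (ι j).2 fun e => hij (ι.injective (Subtype.ext e)), fun i => ?_⟩
      rw [(mem_filter.1 (hS.1 (ι i).2)).2, (mem_filter.1 (hS.1 (ι 0).2)).2]
  have c4 := hsmall 4 S4 (fun x hx => (m4 x).1 hx) (by norm_num)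
  have c6 := hsmall 6 S6 (fun x hx => (m6 x).1 hx) (by norm_num)
  have c8 : S8.card ≤ 47 * (S8.image cls).card :=
    card_le_mul_card_image S8 47 fun c hc => by have := hbig c hc; omega
  have hdiff : ∀ (n m : ℤ) (S T : Finset Vec), (∀ x ∈ S, ip B x x = n) → (∀ x ∈ T, ip B x x = m) →
      n ≠ m → n ≤ 8 → m ≤ 8 → Disjoint (S.image cls) (T.image cls) := by
    intro n m S T hS hT hnm hn hm
    rw [disjoint_left]
    intro c hc hc'
    obtain ⟨x, hx, rfl⟩ := mem_image.1 hc
    obtain ⟨y, hy, he⟩ := mem_image.1 hc'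
    rcases h.short (by rw [hT y hy]; omega) (by rw [hS x hx]; omega) he with e | e | ⟨e1, e2, -⟩
    · exact hnm (by rw [← hS x hx, ← hT y hy, e])
    · exact hnm (by rw [← hS x hx, ← hT y hy, e]; simp [ip, mulVec_neg])
    · exact hnm (by rw [← hS x hx, ← hT y hy, e1, e2])
  have d0 : ∀ (n : ℤ) (S : Finset Vec), (∀ x ∈ S, ip B x x = n) → n ≠ 0 → n ≤ 8 →
      Disjoint (({0} : Finset Vec).image cls) (S.image cls) := fun n S hS hn0 hn =>
    hdiff 0 n {0} S (by simp [ip]) hS hn0.symm (by norm_num) hn
  have htot := card_le_univ (((({0} : Finset Vec).image cls ∪ S4.image cls) ∪ S6.image cls) ∪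
    S8.image cls)
  rw [card_union_of_disjoint (by
      rw [disjoint_union_left, disjoint_union_left]
      exact ⟨⟨d0 8 S8 (fun x hx => (m8 x).1 hx) (by norm_num) (by norm_num),
        hdiff 4 8 S4 S8 (fun x hx => (m4 x).1 hx) (fun x hx => (m8 x).1 hx) (by norm_num) (by norm_num) le_rfl⟩,
        hdiff 6 8 S6 S8 (fun x hx => (m6 x).1 hx) (fun x hx => (m8 x).1 hx) (by norm_num) (by norm_num) le_rfl⟩),
    card_union_of_disjoint (by
      rw [disjoint_union_left]
      exact ⟨d0 6 S6 (fun x hx => (m6 x).1 hx) (by norm_num) (by norm_num),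
        hdiff 4 6 S4 S6 (fun x hx => (m4 x).1 hx) (fun x hx => (m6 x).1 hx) (by norm_num) (by norm_num) (by norm_num)⟩),
    card_union_of_disjoint (d0 4 S4 (fun x hx => (m4 x).1 hx) (by norm_num) (by norm_num)),
    image_singleton, card_singleton, Fintype.card_fun, ZMod.card, Fintype.card_fin] at htot
  norm_num at htot
  omega

/-- Coordinates with respect to a frame. -/
def coord (B : Matrix (Fin 24) (Fin 24) ℤ) (v : Fin 24 → Vec) : Vec →+ Vec where
  toFun x i := ip B x (v i)
  map_zero' := funext fun i => by simp [ip]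
  map_add' x y := funext fun i => ip_add_left B x y (v i)

theorem coord_apply (v : Fin 24 → Vec) (x : Vec) (i : Fin 24) : coord B v x i = ip B x (v i) := rfl

theorem eight_smul (h : Good B) {v : Fin 24 → Vec} (hv : IsFrame B v) (x : Vec) :
    (8 : ℤ) • x = ∑ i, coord B v x i • v i := by
  have hvne : ∀ i, v i ≠ 0 := fun i e => by have := hv.1 i; rw [e] at this; simp [ip] at this
  set r := (8 : ℤ) • x + (-1 : ℤ) • ∑ i, coord B v x i • v i with hr
  have hrv : ∀ j, ip B r (v j) = 0 := by
    intro j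
    simp only [hr, ip_add_left, ip_smul_left, ip_sum_left]
    rw [sum_eq_single j (fun i _ hi => by rw [hv.2.1 i j hi, mul_zero]) (by simp), hv.1 j, coord_apply]
    ring
  have hr0 : r = 0 := by
    by_contra hne
    have hl := h.orth_indep (fun o : Option (Fin 24) => o.elim r v)
      (by rintro (_ | i); exacts [hne, hvne i])
      (by
        rintro (_ | i) (_ | j) hij
        · exact absurd rfl hij
        · exact hrv j
        · exact (ip_symm B h.symm _ _).trans (hrv i)
        · exact hv.2.1 i j fun e => hij (congrArg some e))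
    have := hl.fintype_card_le_finrank
    simp at this
  rw [hr, neg_one_zsmul, add_neg_eq_zero] at hr0
  exact hr0

theorem sum_coord_sq (h : Good B) {v : Fin 24 → Vec} (hv : IsFrame B v) (x : Vec) :
    ∑ i, coord B v x i ^ 2 = 8 * ip B x x := by
  have := congrArg (fun y => ip B y x) (eight_smul h hv x)
  simp only [ip_smul_left, ip_sum_left] at this
  rw [this]
  refine sum_congr rfl fun i _ => ?_
  rw [ip_symm B h.symm (v i) x, sq, coord_apply]

theorem sum_coord_mul (h : Good B) {v : Fin 24 → Vec} (hv : IsFrame B v) (x y : Vec) :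
    ∑ i, coord B v x i * coord B v y i = 8 * ip B x y := by
  have := congrArg (fun z => ip B z y) (eight_smul h hv x)
  simp only [ip_smul_left, ip_sum_left] at this
  rw [this]
  refine sum_congr rfl fun i _ => ?_
  rw [ip_symm B h.symm (v i) y]; rfl

end CfsgLib.LeechUnique
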