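import Cfsg.Agent.DesignUnique.Family
import Cfsg.Agent.Leech.Lattice
import Mathlib

/-! A lattice in standard coordinates with the properties of the Leech lattice is the Leech lattice,
up to a permutation and signs of the coordinates. -/

set_option autoImplicit false
set_option linter.unusedSimpArgs false
set_option maxRecDepth 8000

open Finset

namespace CfsgLib.LeechUnique

open Cfsg CfsgLib.Golay

abbrev Word : Type := Fin 24 → ZMod 2

/-- The properties of the coordinate image. -/
structure Shape (M : AddSubgroup (Fin 24 → ℤ)) : Prop where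
  sq16 : ∀ y ∈ M, (16 : ℤ) ∣ ∑ i, y i ^ 2
  min32 : ∀ y ∈ M, y ≠ 0 → 32 ≤ ∑ i, y i ^ 2
  dot8 : ∀ y ∈ M, ∀ z ∈ M, (8 : ℤ) ∣ ∑ i, y i * z i
  par : ∀ y ∈ M, ∀ i j, (2 : ℤ) ∣ y i - y j
  eight : ∀ i, Pi.single i (8 : ℤ) ∈ M
  sub : ∀ i j, Pi.single i (4 : ℤ) - Pi.single j 4 ∈ M
  count : {y : Fin 24 → ℤ | y ∈ M ∧ ∑ i, y i ^ 2 = 32}.ncard = 196560

variable {M : AddSubgroup (Fin 24 → ℤ)}

/-- Reduction modulo two. -/
def redW : (Fin 24 → ℤ) →+ Word where
  toFun a i := (a i : ZMod 2)
  map_zero' := by funext i; simp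
  map_add' a b := by funext i; simp

theorem redW_apply (a : Fin 24 → ℤ) (i : Fin 24) : redW a i = (a i : ZMod 2) := rfl

theorem mem_supp_redW {a : Fin 24 → ℤ} {i : Fin 24} : i ∈ SelfDual24.supp (redW a) ↔ a i % 2 = 1 := by
  rw [SelfDual24.mem_supp, redW_apply, ne_eq, ZMod.intCast_zmod_eq_zero_iff_dvd]
  omega

theorem Shape.four_mem (h : Shape M) (a : Fin 24 → ℤ) :
    (fun i => 4 * a i) ∈ M ↔ (2 : ℤ) ∣ ∑ i, a i := by
  have hdec : (fun i => 4 * a i) = (∑ i, a i • (Pi.single i (4 : ℤ) - Pi.single 0 4)) +
      (∑ i, a i) • (Pi.single 0 4 : Fin 24 → ℤ) := by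
    simp only [smul_sub, sum_sub_distrib, ← sum_smul, sub_add_cancel]
    funext j
    simp [Finset.sum_apply, Pi.single_apply, mul_comm]
  have h1 : ∑ i, a i • (Pi.single i (4 : ℤ) - Pi.single 0 4) ∈ M :=
    sum_mem fun i _ => M.zsmul_mem (h.sub i 0) _
  rw [hdec, M.add_mem_cancel_left h1]
  have hspec : ∀ k : ℤ, (2 * k) • (Pi.single 0 4 : Fin 24 → ℤ) ∈ M := fun k => by
    have e : (2 * k) • (Pi.single 0 4 : Fin 24 → ℤ) = k • (Pi.single 0 8 : Fin 24 → ℤ) := by
      funext j; simp [Pi.single_apply]; split <;> ring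
    rw [e]
    exact M.zsmul_mem (h.eight 0) k
  constructor
  · intro hm
    by_contra hodd
    obtain ⟨k, hk⟩ : ∃ k, ∑ i, a i = 2 * k + 1 := ⟨(∑ i, a i) / 2, by omega⟩
    rw [hk, add_smul, one_smul, M.add_mem_cancel_left (hspec k)] at hm
    have := h.min32 _ hm (by intro e; have := congrFun e 0; simp at this)
    simp [Pi.single_apply, apply_ite (· ^ 2)] at this
  · rintro ⟨k, hk⟩
    rw [hk]
    exact hspec k

/-- The binary code of the even vectors. -/
def code (M : AddSubgroup (Fin 24 → ℤ)) : Submodule (ZMod 2) Word :=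
  AddSubgroup.toZModSubmodule 2
    ((M.comap (AddMonoidHom.mulLeft (2 : Fin 24 → ℤ))).map redW)

theorem mem_code {w : Word} : w ∈ code M ↔ ∃ a, (fun i => 2 * a i) ∈ M ∧ redW a = w := Iff.rfl

/-- A representative with entries 0 and ±1. -/
theorem Shape.exists_small (h : Shape M) {w : Word} (hw : w ∈ code M) :
    ∃ a, (fun i => 2 * a i) ∈ M ∧ redW a = w ∧
      ∑ i, a i ^ 2 = (SelfDual24.supp w).card := by
  obtain ⟨a, ha, rfl⟩ := mem_code.1 hw
  set S := SelfDual24.supp (redW a) with hS
  set b : Fin 24 → ℤ := fun i => if i ∈ S then 1 else 0 with hb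
  have hab : ∀ i, (2 : ℤ) ∣ a i - b i := fun i => by
    by_cases hi : i ∈ S
    · have := mem_supp_redW.1 hi
      simp only [hb, hi, if_true]; omega
    · have : ¬ a i % 2 = 1 := fun e => hi (mem_supp_redW.2 e)
      simp only [hb, hi, if_false]; omega
  choose k hk using hab
  have hred : ∀ c : Fin 24 → ℤ, redW (a - fun i => 2 * c i) = redW a := fun c => by
    funext i
    simp [redW_apply, show (2 : ZMod 2) = 0 from rfl]
  by_cases hev : (2 : ℤ) ∣ ∑ i, k i
  · refine ⟨a - fun i => 2 * k i, ?_, hred k, ?_⟩
    · have := M.sub_mem ha ((h.four_mem k).2 hev)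
      convert this using 1
      funext i; simp; ring
    · rw [show (a - fun i => 2 * k i) = b from funext fun i => by
        have := hk i; simp only [Pi.sub_apply]; omega]
      simp [hb, apply_ite (· ^ 2)]
  · rcases S.eq_empty_or_nonempty with hS0 | ⟨p, hp⟩
    · exfalso
      have hb0 : ∀ i, a i = 2 * k i := fun i => by have := hk i; simp [hb, hS0] at this; omega
      apply hev
      rw [← h.four_mem]
      convert ha using 1
      funext i; rw [hb0]; ring
    · refine ⟨a - fun i => 2 * (k + Pi.single p 1 : Fin 24 → ℤ) i, ?_, hred _, ?_⟩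
      · have := M.sub_mem ha ((h.four_mem (k + Pi.single p 1 : Fin 24 → ℤ)).2 (by
          simp [sum_add_distrib]; omega))
        convert this using 1
        funext i; simp; ring
      · rw [show (a - fun i => 2 * (k + Pi.single p 1 : Fin 24 → ℤ) i) =
          fun i => if i = p then -1 else b i from funext fun i => by
            have := hk i
            by_cases e : i = p
            · subst e; simp [hb, hp] at this ⊢; omega
            · simp [e] at this ⊢; omega]
        rw [show ∑ i, (if i = p then -1 else b i) ^ 2 = ∑ i, b i ^ 2 from sum_congr rfl fun i _ => by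
          by_cases e : i = p
          · subst e; simp [hb, hp]
          · simp [e]]
        simp [hb, apply_ite (· ^ 2)]

theorem Shape.weight (h : Shape M) {w : Word} (hw : w ∈ code M) :
    4 ∣ (SelfDual24.supp w).card ∧ (w ≠ 0 → 8 ≤ (SelfDual24.supp w).card) := by
  obtain ⟨a, ha, hr, hsq⟩ := h.exists_small hw
  have e : ∑ i, (2 * a i) ^ 2 = 4 * ((SelfDual24.supp w).card : ℤ) := by
    simp only [mul_pow, ← mul_sum, hsq]; norm_num
  refine ⟨?_, fun hne => ?_⟩
  · have := h.sq16 _ ha
    rw [e] at this
    omega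
  · have := h.min32 _ ha (fun h0 => hne (by
      rw [← hr]
      funext i
      have := congrFun h0 i
      simp at this
      simp [redW_apply, this]))
    rw [e] at this
    omega

theorem Shape.orth (h : Shape M) {v w : Word} (hv : v ∈ code M) (hw : w ∈ code M) :
    ∑ i, v i * w i = 0 := by
  obtain ⟨a, ha, rfl⟩ := mem_code.1 hv
  obtain ⟨b, hb, rfl⟩ := mem_code.1 hw
  have h8 := h.dot8 _ ha _ hb
  rw [show ∑ i, 2 * a i * (2 * b i) = 4 * ∑ i, a i * b i by
    rw [mul_sum]; exact sum_congr rfl fun i _ => by ring] at h8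
  have h2 : (2 : ℤ) ∣ ∑ i, a i * b i := by omega
  rw [← ((ZMod.intCast_zmod_eq_zero_iff_dvd _ 2).2 h2)]
  push_cast
  rfl

theorem Shape.card_code_le (h : Shape M) :
    Module.finrank (ZMod 2) (code M) ≤ 12 := by
  have hle : code M ≤ DesignUnique.dualCode (code M) := fun v hv =>
    DesignUnique.mem_dualCode.2 fun w hw => h.orth hv hw
  have h1 : Module.finrank (ZMod 2) (code M) +
      Module.finrank (ZMod 2) (DesignUnique.dualCode (code M)) = 24 := DesignUnique.finrank_dualCode (code M)
  have h2 : Module.finrank (ZMod 2) (code M) ≤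
      Module.finrank (ZMod 2) (DesignUnique.dualCode (code M)) := Submodule.finrank_mono hle
  omega

/-- The short vectors with all coordinates odd: one entry of modulus three. -/
theorem odd_shape {y : Fin 24 → ℤ} (hodd : ∀ i, y i % 2 = 1) (h32 : ∑ i, y i ^ 2 = 32) :
    ∃ p, (y p = 3 ∨ y p = -3) ∧ ∀ i, i ≠ p → y i = 1 ∨ y i = -1 := by
  have hge : ∀ i, 1 ≤ y i ^ 2 := fun i => by
    have : y i ≠ 0 := by have := hodd i; omega
    nlinarith [Int.one_le_abs this, sq_abs (y i)]
  have hbound : ∀ i, y i ^ 2 ≤ 9 := fun i => by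
    have h1 := add_sum_erase univ (fun j => y j ^ 2) (mem_univ i)
    have h2 : ∑ j ∈ univ.erase i, (1 : ℤ) ≤ ∑ j ∈ univ.erase i, y j ^ 2 := sum_le_sum fun j _ => hge j
    rw [sum_const, card_erase_of_mem (mem_univ i), card_univ, Fintype.card_fin] at h2
    simp only [nsmul_eq_mul, mul_one] at h2
    push_cast at h2
    omega
  have hvals : ∀ i, y i = 3 ∨ y i = -3 ∨ y i = 1 ∨ y i = -1 := fun i => by
    have h1 := hbound i
    have h2 : -3 ≤ y i ∧ y i ≤ 3 := ⟨by nlinarith, by nlinarith⟩
    have := hodd i
    omega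
  set P := univ.filter fun i => y i = 3 ∨ y i = -3 with hP
  have hsum : ∀ i, y i ^ 2 = 1 + if i ∈ P then 8 else 0 := fun i => by
    simp only [hP, mem_filter, mem_univ, true_and]
    rcases hvals i with e | e | e | e <;> simp [e]
  simp only [hsum, sum_add_distrib, sum_ite_mem, univ_inter, sum_const, card_univ, Fintype.card_fin,
    nsmul_eq_mul] at h32
  push_cast at h32
  obtain ⟨p, hp⟩ := card_eq_one.1 (show P.card = 1 by omega)
  refine ⟨p, by simpa [hP] using (hp ▸ mem_singleton_self p : p ∈ P), fun i hi => ?_⟩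
  have : i ∉ P := by rw [hp, mem_singleton]; exact hi
  simp only [hP, mem_filter, mem_univ, true_and] at this
  rcases hvals i with e | e | e | e <;> simp_all

open Classical in
theorem Shape.count_eights (h : Shape M) :
    ((univ : Finset (Finset (Fin 24))).filter fun s => s.card = 8 ∧
      ∃ w ∈ code M, SelfDual24.supp w = s).card ≤ 759 := by
  classical
  set T := (univ : Finset (Finset (Fin 24))).filter fun s => s.card = 8 ∧
      ∃ w ∈ code M, SelfDual24.supp w = s with hT
  have hd : (T : Set (Finset (Fin 24))).PairwiseDisjoint (powersetCard 5) := by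
    intro s hs t ht hne
    simp only [hT, coe_filter, mem_univ, true_and, Set.mem_ofPred_eq] at hs ht
    obtain ⟨hs8, v, hv, hvs⟩ := hs
    obtain ⟨ht8, w, hw, hwt⟩ := ht
    rw [Function.onFun, disjoint_left]
    intro f hf hg
    rw [mem_powersetCard] at hf hg
    have hsub : SelfDual24.supp (v + w) ⊆ (s ∪ t) \ (s ∩ t) := by
      intro i hi
      rw [← hvs, ← hwt]
      simp only [mem_sdiff, mem_union, mem_inter, SelfDual24.mem_supp, Pi.add_apply] at hi ⊢
      rcases SelfDual24.zmod_two (v i) with e | e <;> rcases SelfDual24.zmod_two (w i) with e' | e' <;>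
        simp [e, e', show (1 : ZMod 2) + 1 = 0 from rfl] at hi ⊢
    have h8 := (h.weight (add_mem hv hw)).2 (fun e => hne (by
      rw [← hvs, ← hwt]
      congr 1
      funext i
      have := congrFun e i
      rcases SelfDual24.zmod_two (v i) with e1 | e1 <;> rcases SelfDual24.zmod_two (w i) with e' | e' <;>
        simp [e1, e'] at this ⊢))
    have h5 := card_le_card (subset_inter hf.1 hg.1)
    have hle := card_le_card hsub
    rw [card_sdiff_of_subset (inter_subset_left.trans subset_union_left)] at hle
    have := card_union_add_card_inter s t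
    omega
  have h1 : (T.biUnion (powersetCard 5)).card ≤ Nat.choose 24 5 := by
    refine le_trans (card_le_card (?_ : _ ⊆ powersetCard 5 (univ : Finset (Fin 24)))) (by simp)
    intro f hf
    simp only [mem_biUnion, mem_powersetCard] at hf ⊢
    obtain ⟨_, _, _, hf⟩ := hf
    exact ⟨subset_univ _, hf⟩
  rw [card_biUnion hd, sum_congr rfl fun s hs => by rw [card_powersetCard, (mem_filter.1 hs).2.1],
    sum_const, smul_eq_mul, show Nat.choose 8 5 = 56 by decide, show Nat.choose 24 5 = 42504 by decide] at h1
  omega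

/-- The vectors with two entries of modulus four. -/
def pairVectors : Finset (Fin 24 → ℤ) :=
  (((univ : Finset (Fin 24 × Fin 24)).filter fun p => p.1 < p.2) ×ˢ
    (({4, -4} : Finset ℤ) ×ˢ ({4, -4} : Finset ℤ))).image
    fun q i => if i = q.1.1 then q.2.1 else if i = q.1.2 then q.2.2 else 0

theorem card_pairVectors_le : pairVectors.card ≤ 1104 := by
  refine card_image_le.trans ?_
  decide +kernel

theorem Shape.exists_odd_and_code (h : Shape M) :
    (∃ o ∈ M, ∀ i, o i % 2 = 1) ∧ Module.finrank (ZMod 2) (code M) = 12 := by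
  classical
  have hfin : {y : Fin 24 → ℤ | y ∈ M ∧ ∑ i, y i ^ 2 = 32}.Finite :=
    Set.finite_of_ncard_ne_zero (by rw [h.count]; norm_num)
  have hcount := h.count
  rw [Set.ncard_eq_toFinset_card _ hfin] at hcount
  set S := hfin.toFinset with hS
  have mS : ∀ y, y ∈ S ↔ y ∈ M ∧ ∑ i, y i ^ 2 = 32 := fun y => by simp [hS]
  set Od := S.filter fun y => y 0 % 2 = 1 with hOd
  set Ev := S.filter fun y => ¬ y 0 % 2 = 1 with hEv
  have hsplit : Od.card + Ev.card = 196560 := by
    rw [card_filter_add_card_filter_not, hcount]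
  -- even vectors
  have hev : Ev.card ≤ 98256 := by
    set T := (univ : Finset (Finset (Fin 24))).filter fun s => s.card = 8 ∧
      ∃ w ∈ code M, SelfDual24.supp w = s with hT
    set F : Finset (Fin 24) → Finset (Fin 24 → ℤ) := fun s =>
      Ev.filter fun y => ∀ i, if i ∈ s then (y i = 2 ∨ y i = -2) else y i = 0 with hF
    have hcov : Ev ⊆ pairVectors ∪ T.biUnion F := by
      intro y hy
      have hyS := (mS y).1 (mem_filter.1 hy).1
      have hpar : ∀ i, (2 : ℤ) ∣ y i := fun i => by
        have := h.par y hyS.1 i 0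
        have := (mem_filter.1 hy).2
        omega
      choose a ha using hpar
      have hy2 : y = fun i => 2 * a i := funext ha
      have hw : redW a ∈ code M := mem_code.2 ⟨a, hy2 ▸ hyS.1, rfl⟩
      have hsq : ∑ i, a i ^ 2 = 8 := by
        have := hyS.2
        simp only [ha, mul_pow, ← mul_sum] at this
        norm_num at this
        omega
      rw [mem_union]
      by_cases h0 : redW a = 0
      · left
        have he : ∀ i, (2 : ℤ) ∣ a i := fun i =>
          (ZMod.intCast_zmod_eq_zero_iff_dvd _ 2).1 (congrFun h0 i)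
        choose k hk using he
        have hk2 : ∑ i, k i ^ 2 = 2 := by
          simp only [hk, mul_pow, ← mul_sum] at hsq
          norm_num at hsq
          omega
        have hv : ∀ i, k i = 0 ∨ k i = 1 ∨ k i = -1 := fun i => by
          have h1 : k i ^ 2 ≤ 2 := hk2 ▸ single_le_sum (fun j _ => sq_nonneg (k j)) (mem_univ i)
          have : -1 ≤ k i ∧ k i ≤ 1 := ⟨by nlinarith, by nlinarith⟩
          omega
        have hc : (univ.filter fun i => k i ≠ 0).card = 2 := by
          have : ∀ i, k i ^ 2 = if k i ≠ 0 then 1 else 0 := fun i => by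
            rcases hv i with e | e | e <;> simp [e]
          rw [sum_congr rfl fun i _ => this i, sum_boole] at hk2
          exact_mod_cast hk2
        obtain ⟨p, q, hpq, he⟩ := card_eq_two.1 hc
        wlog hlt : p < q generalizing p q
        · exact this q p hpq.symm (by rw [he, pair_comm]) (lt_of_le_of_ne (not_lt.1 hlt) hpq.symm)
        have hmem : ∀ i, k i ≠ 0 ↔ i = p ∨ i = q := fun i => by
          simpa using Finset.ext_iff.1 he i
        refine mem_image.2 ⟨((p, q), (y p, y q)), ?_, funext fun i => ?_⟩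
        · simp only [mem_product, mem_filter, mem_univ, true_and, mem_insert, mem_singleton]
          refine ⟨hlt, ?_, ?_⟩
          · rw [ha p, hk p]
            rcases hv p with e | e | e
            · exact absurd e ((hmem p).2 (Or.inl rfl))
            · exact Or.inl (by omega)
            · exact Or.inr (by omega)
          · rw [ha q, hk q]
            rcases hv q with e | e | e
            · exact absurd e ((hmem q).2 (Or.inr rfl))
            · exact Or.inl (by omega)
            · exact Or.inr (by omega)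
        · by_cases e1 : i = p
          · simp [e1]
          by_cases e2 : i = q
          · simp [e2, Ne.symm hpq]
          have : k i = 0 := by
            by_contra hne
            rcases (hmem i).1 hne with e | e <;> contradiction
          simp [e1, e2, ha i, hk i, this]
      · right
        set s := SelfDual24.supp (redW a) with hs
        have h8 : 8 ≤ s.card := (h.weight hw).2 h0
        have hge : ∀ i ∈ s, 1 ≤ a i ^ 2 := fun i hi => by
          have : a i ≠ 0 := by have := mem_supp_redW.1 hi; omega
          nlinarith [Int.one_le_abs this, sq_abs (a i)]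
        have hle : (s.card : ℤ) ≤ ∑ i ∈ s, a i ^ 2 := by
          simpa using sum_le_sum hge
        have hrest := sum_add_sum_compl s (fun i => a i ^ 2)
        have hnn : 0 ≤ ∑ i ∈ sᶜ, a i ^ 2 := sum_nonneg fun i _ => sq_nonneg _
        have hs8 : s.card = 8 := by omega
        have hzero : ∑ i ∈ sᶜ, a i ^ 2 = 0 := by omega
        have hone : ∑ i ∈ s, (a i ^ 2 - 1) = 0 := by
          rw [sum_sub_distrib, sum_const, hs8]; simp; omega
        refine mem_biUnion.2 ⟨s, mem_filter.2 ⟨mem_univ _, hs8, redW a, hw, hs.symm⟩, mem_filter.2 ⟨hy, fun i => ?_⟩⟩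
        by_cases hi : i ∈ s
        · rw [if_pos hi]
          have := (sum_eq_zero_iff_of_nonneg fun j hj => by have := hge j hj; omega).1 hone i hi
          have : a i = 1 ∨ a i = -1 := sq_eq_one_iff.1 (by omega)
          rw [ha i]; omega
        · rw [if_neg hi, ha i, sq_eq_zero_iff.1
            ((sum_eq_zero_iff_of_nonneg fun j _ => sq_nonneg _).1 hzero i (mem_compl.2 hi))]
          norm_num
    have hFs : ∀ s ∈ T, (F s).card ≤ 128 := by
      intro s hs
      obtain ⟨q, hq⟩ := card_pos.1 (show 0 < s.card by rw [(mem_filter.1 hs).2.1]; norm_num)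
      refine le_trans (card_le_card_of_injOn (t := (univ : Finset ({i // i ∈ s.erase q} → Bool)))
        (fun y i => decide (0 < y i.1)) (fun y _ => mem_univ _) ?_) ?_
      · intro y hy z hz hyz
        simp only [hF, coe_filter, Set.mem_ofPred_eq] at hy hz
        have hoff : ∀ i, i ≠ q → y i = z i := fun i hi => by
          have h1 := hy.2 i; have h2 := hz.2 i
          by_cases his : i ∈ s
          · rw [if_pos his] at h1 h2
            have := congrFun hyz ⟨i, mem_erase.2 ⟨hi, his⟩⟩
            simp only [decide_eq_decide] at this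
            omega
          · rw [if_neg his] at h1 h2; omega
        by_contra hne
        have hq' : y q ≠ z q := fun e => hne (funext fun i => by
          by_cases hi : i = q
          · exact hi ▸ e
          · exact hoff i hi)
        have hd := M.sub_mem ((mS y).1 (mem_filter.1 hy.1).1).1 ((mS z).1 (mem_filter.1 hz.1).1).1
        have h1 := hy.2 q; have h2 := hz.2 q
        rw [if_pos hq] at h1 h2
        obtain ⟨d, hdv⟩ : ∃ d, y q - z q = 4 * d := ⟨(y q - z q) / 4, by omega⟩
        have he : y - z = fun i => 4 * (Pi.single q d : Fin 24 → ℤ) i := funext fun i => by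
          by_cases hi : i = q
          · subst hi; simp [hdv]
          · simp [hi, hoff i hi]
        rw [he, h.four_mem, sum_pi_single' q d univ, if_pos (mem_univ q)] at hd
        omega
      · rw [card_univ, Fintype.card_fun, Fintype.card_bool, Fintype.card_coe, card_erase_of_mem hq,
          (mem_filter.1 hs).2.1]
        norm_num
    have h1 := (card_le_card hcov).trans ((card_union_le _ _).trans
      (Nat.add_le_add card_pairVectors_le (card_biUnion_le.trans (sum_le_sum hFs))))
    rw [sum_const, smul_eq_mul] at h1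
    have := h.count_eights
    rw [← hT] at this
    omega
  -- odd vectors
  have hne : Od.Nonempty := card_pos.1 (by omega)
  obtain ⟨o, ho⟩ := hne
  have hall : ∀ y ∈ Od, ∀ i, y i % 2 = 1 := fun y hy i => by
    have := h.par y ((mS y).1 (mem_filter.1 hy).1).1 i 0
    have := (mem_filter.1 hy).2
    omega
  refine ⟨⟨o, ((mS o).1 (mem_filter.1 ho).1).1, hall o ho⟩, ?_⟩
  have hpos : ∀ y : Fin 24 → ℤ, ∃ p, y ∈ Od → (y p = 3 ∨ y p = -3) ∧ ∀ i, i ≠ p → y i = 1 ∨ y i = -1 := by
    intro y
    by_cases hy : y ∈ Od
    · obtain ⟨p, hp⟩ := odd_shape (hall y hy) ((mS y).1 (mem_filter.1 hy).1).2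
      exact ⟨p, fun _ => hp⟩
    · exact ⟨0, fun h => absurd h hy⟩
  choose pos hpos using hpos
  let Cf : Finset Word := (code M : Set Word).toFinite.toFinset
  have hle : Od.card ≤ ((univ : Finset (Fin 24)) ×ˢ Cf).card := by
    refine card_le_card_of_injOn (fun y => (pos y, redW fun i => (y i - o i) / 2)) ?_ ?_
    · intro y hy
      simp only [coe_product, Set.mem_prod, coe_univ, Set.mem_univ, true_and, Cf, Set.Finite.coe_toFinset,
        SetLike.mem_coe]
      refine mem_code.2 ⟨fun i => (y i - o i) / 2, ?_, rfl⟩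
      convert M.sub_mem ((mS y).1 (mem_filter.1 hy).1).1 ((mS o).1 (mem_filter.1 ho).1).1 using 1
      funext i
      have := hall y hy i
      have := hall o ho i
      simp only [Pi.sub_apply]
      omega
    · intro y hy z hz e
      simp only [Prod.mk.injEq] at e
      funext i
      have h1 := (ZMod.intCast_eq_intCast_iff' _ _ 2).1 (congrFun e.2 i)
      have a1 := hall y hy i
      have a2 := hall z hz i
      have a3 := hall o ho i
      have hd : (4 : ℤ) ∣ y i - z i := by push_cast at h1; omega
      by_cases hi : i = pos y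
      · have b1 := (hpos y hy).1
        have b2 := (hpos z hz).1
        rw [← hi] at b1
        rw [← e.1, ← hi] at b2
        omega
      · have b1 := (hpos y hy).2 i hi
        have b2 := (hpos z hz).2 i (e.1 ▸ hi)
        omega
  rw [card_product, card_univ, Fintype.card_fin] at hle
  have hcard : Cf.card = 2 ^ Module.finrank (ZMod 2) (code M) := by
    have h1 := Module.natCard_eq_pow_finrank (K := ZMod 2) (V := code M)
    rw [Nat.card_zmod] at h1
    rw [← h1, ← Set.ncard_eq_toFinset_card (code M : Set Word)]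
    exact Nat.card_coe_set_eq (code M : Set Word) |>.symm
  have h12 := h.card_code_le
  by_contra hne12
  have : 2 ^ Module.finrank (ZMod 2) (code M) ≤ 2 ^ 11 :=
    Nat.pow_le_pow_right (by norm_num) (by omega)
  omega

/-- Up to a permutation and signs, the lattice is the Leech lattice. -/
theorem Shape.exists_equiv (h : Shape M) : ∃ F : (Fin 24 → ℤ) ≃+ (GolayPt → ℤ),
    (∀ y, sqNorm (F y) = ∑ i, y i ^ 2) ∧ ∀ z, z ∈ leechLattice ↔ F.symm z ∈ M := by
  obtain ⟨⟨o, ho, hodd⟩, hdim⟩ := h.exists_odd_and_code
  have hH : SelfDual24.Hyp (code M) := ⟨hdim, fun v hv w hw => h.orth hv hw, fun w hw hne => by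
    rw [SelfDual24.hammingNorm_eq]; exact (h.weight hw).2 hne⟩
  obtain ⟨e, he⟩ := DesignUnique.exists_equiv_golay hH
  have hcode : ∀ a : Fin 24 → ℤ, redW a ∈ code M ↔ Leech.red (fun p => a (e.symm p)) ∈ golayCode := by
    intro a
    have h1 : (SelfDual24.supp (redW a)).image e = support₂ (Leech.red fun p => a (e.symm p)) := by
      ext p
      rw [Finset.mem_image, Leech.mem_support₂_red]
      constructor
      · rintro ⟨i, hi, rfl⟩; simpa using mem_supp_redW.1 hi
      · intro hp; exact ⟨e.symm p, mem_supp_redW.2 hp, e.apply_symm_apply p⟩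
    have h2 := he (SelfDual24.supp (redW a))
    rw [SelfDual24.mem_sets, h1, mem_codeSets] at h2
    have h3 : SelfDual24.word (SelfDual24.supp (redW a)) = redW a :=
      SelfDual24.supp_injective (SelfDual24.supp_word _)
    rw [h3] at h2
    rw [h2]
    refine ⟨?_, fun hm => ⟨_, hm, rfl⟩⟩
    rintro ⟨w, hw, hws⟩
    rwa [← support₂_injective hws]
  set ε : Fin 24 → ℤ := fun i => if o i % 4 = 1 then 1 else -1 with hε
  have hεsq : ∀ i, ε i * ε i = 1 := fun i => by by_cases e : o i % 4 = 1 <;> simp [hε, e]
  let F : (Fin 24 → ℤ) ≃+ (GolayPt → ℤ) :=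
    { toFun := fun y p => ε (e.symm p) * y (e.symm p)
      invFun := fun z i => ε i * z (e i)
      left_inv := fun y => funext fun i => by simp [← mul_assoc, hεsq]
      right_inv := fun z => funext fun p => by simp [← mul_assoc, hεsq]
      map_add' := fun y z => funext fun p => by simp [mul_add] }
  have hF : ∀ y p, F y p = ε (e.symm p) * y (e.symm p) := fun _ _ => rfl
  have hFs : ∀ z i, F.symm z i = ε i * z (e i) := fun _ _ => rfl
  refine ⟨F, fun y => ?_, ?_⟩
  · simp only [sqNorm, hF]
    rw [← Equiv.sum_comp e]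
    refine sum_congr rfl fun i _ => ?_
    rw [e.symm_apply_apply, mul_pow, sq (ε i), hεsq, one_mul]
  -- even vectors
  have hevM : ∀ a : Fin 24 → ℤ, (fun i => 2 * a i) ∈ M → (4 : ℤ) ∣ ∑ i, ε i * a i := by
    intro a ha
    have h8 := h.dot8 _ ho _ ha
    have key : ∀ i, (4 : ℤ) ∣ o i * a i - ε i * a i := fun i => by
      rw [← sub_mul]
      refine Dvd.dvd.mul_right ?_ _
      have := hodd i
      by_cases e : o i % 4 = 1 <;> simp [hε, e] <;> omega
    have hs : (4 : ℤ) ∣ ∑ i, (o i * a i - ε i * a i) := dvd_sum fun i _ => key i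
    rw [sum_sub_distrib] at hs
    rw [show ∑ i, o i * (2 * a i) = 2 * ∑ i, o i * a i by
      rw [mul_sum]; exact sum_congr rfl fun i _ => by ring] at h8
    omega
  have hmod : ∀ (a : Fin 24 → ℤ), redW (fun i => ε i * a i) = redW a := fun a => by
    funext i
    by_cases e : o i % 4 = 1 <;> simp [hε, e, redW_apply, ZMod.neg_eq_self_mod_two]
  have hev : ∀ b : GolayPt → ℤ, (F.symm (fun p => 2 * b p) ∈ M ↔ (fun p => 2 * b p) ∈ leechLattice) := by
    intro b
    have e1 : F.symm (fun p => 2 * b p) = fun i => 2 * (ε i * b (e i)) := funext fun i => by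
      rw [hFs]; ring
    rw [e1, Leech.two_mul_mem_iff]
    have hw : redW (fun i => ε i * b (e i)) ∈ code M ↔ Leech.red b ∈ golayCode := by
      rw [hmod, hcode]; simp
    have hsum : ∑ i, ε i * (ε i * b (e i)) = ∑ p, b p := by
      rw [← Equiv.sum_comp e]; simp [← mul_assoc, hεsq]
    constructor
    · intro hm
      exact ⟨hw.1 (mem_code.2 ⟨_, hm, rfl⟩), hsum ▸ hevM _ hm⟩
    · rintro ⟨hb, hb4⟩
      obtain ⟨a, ha, har⟩ := mem_code.1 (hw.2 hb)
      have he2 : ∀ i, (2 : ℤ) ∣ ε i * b (e i) - a i := fun i => by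
        have h1 := (ZMod.intCast_eq_intCast_iff' _ _ 2).1 (congrFun har i)
        push_cast at h1
        omega
      choose k hk using he2
      have hk2 : (2 : ℤ) ∣ ∑ i, k i := by
        have h1 := hevM a ha
        have h2 : ∑ i, ε i * (2 * k i) = ∑ p, b p - ∑ i, ε i * a i := by
          rw [← hsum, ← sum_sub_distrib]
          exact sum_congr rfl fun i _ => by rw [← hk i]; ring
        have h3 : (2 : ℤ) ∣ ∑ i, (ε i * k i - k i) := dvd_sum fun i _ => by
          by_cases e : o i % 4 = 1 <;> simp [hε, e]
          omega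
        rw [sum_sub_distrib] at h3
        rw [show ∑ i, ε i * (2 * k i) = 2 * ∑ i, ε i * k i by
          rw [mul_sum]; exact sum_congr rfl fun i _ => by ring] at h2
        omega
      convert M.add_mem ha ((h.four_mem k).2 hk2) using 1
      funext i
      have := hk i
      simp only [Pi.add_apply]
      omega
  -- the odd vector
  have hFo : F o ∈ leechLattice := by
    have ht : ∀ p, ∃ t, F o p = 1 + 2 * (2 * t) := fun p => by
      refine ⟨(F o p - 1) / 4, ?_⟩
      have := hodd (e.symm p)
      rw [hF]
      by_cases e' : o (e.symm p) % 4 = 1 <;> simp [hε, e'] <;> omega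
    choose t ht using ht
    have hn := h.sq16 o ho
    have e2 : ∑ i, o i ^ 2 = ∑ p, (1 + 4 * t p) ^ 2 := by
      rw [← Equiv.sum_comp e.symm]
      refine sum_congr rfl fun p _ => ?_
      have := hF o p
      rw [ht p] at this
      rw [show 1 + 4 * t p = ε (e.symm p) * o (e.symm p) by rw [← this]; ring, mul_pow, sq (ε _), hεsq,
        one_mul]
    rw [e2] at hn
    have e3 : ∑ p, (1 + 4 * t p) ^ 2 = 24 + 8 * ∑ p, t p + 16 * ∑ p, t p ^ 2 := by
      rw [mul_sum, mul_sum, show (24 : ℤ) = ∑ _p : GolayPt, (1 : ℤ) by simp,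
        ← sum_add_distrib, ← sum_add_distrib]
      exact sum_congr rfl fun p _ => by ring
    rw [e3] at hn
    rw [show F o = fun p => 1 + 2 * (2 * t p) from funext ht]
    refine Leech.one_add_two_mul_mem ?_ ?_
    · rw [(Leech.red_eq_zero_iff _).2 fun p => dvd_mul_right 2 (t p)]
      exact zero_mem _
    · rw [← mul_sum]; omega
  intro z
  constructor
  · intro hz
    rcases Leech.leech_cases hz with ⟨b, hb, -, -⟩ | ⟨b, hb, -, -⟩
    · rw [show z = fun p => 2 * b p from funext hb] at hz ⊢
      exact (hev b).2 hz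
    · have hd := leechLattice.sub_mem hz hFo
      have hb2 : ∀ p, (2 : ℤ) ∣ (z - F o) p := fun p => by
        have := hodd (e.symm p)
        simp only [Pi.sub_apply, hb p, hF]
        by_cases e' : o (e.symm p) % 4 = 1 <;> simp [hε, e'] <;> omega
      choose c hc using hb2
      rw [funext hc] at hd
      have h1 := M.add_mem ((hev c).2 hd) ho
      rw [← funext hc, map_sub, F.symm_apply_apply, sub_add_cancel] at h1
      exact h1
  · intro hz
    by_cases hpar : F.symm z 0 % 2 = 1
    · have hd := M.sub_mem hz ho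
      have hb2 : ∀ p, (2 : ℤ) ∣ (z - F o) p := fun p => by
        have h1 := h.par _ hz (e.symm p) 0
        have h2 := hodd (e.symm p)
        rw [hFs, e.apply_symm_apply] at h1
        simp only [Pi.sub_apply, hF]
        by_cases e' : o (e.symm p) % 4 = 1 <;> simp [hε, e'] at h1 ⊢ <;> omega
      choose c hc using hb2
      have hm : F.symm (fun p => 2 * c p) ∈ M := by
        rw [← funext hc, map_sub, F.symm_apply_apply]; exact hd
      have h1 := leechLattice.add_mem ((hev c).1 hm) hFo
      rwa [← funext hc, sub_add_cancel] at h1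
    · have hb2 : ∀ p, (2 : ℤ) ∣ z p := fun p => by
        have h1 := h.par _ hz (e.symm p) 0
        rw [hFs, e.apply_symm_apply] at h1
        by_cases e' : o (e.symm p) % 4 = 1 <;> simp [hε, e'] at h1 hpar ⊢ <;> omega
      choose c hc using hb2
      rw [funext hc] at hz ⊢
      exact (hev c).1 hz

end CfsgLib.LeechUnique
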