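import Cfsg.Agent.LeechUnique.Frame
import Cfsg.Agent.LeechUnique.Shape

/-! The characterisation of the Leech lattice by its numbers of short vectors. -/

set_option autoImplicit false

open Finset Matrix

namespace CfsgLib.LeechUnique

open Cfsg

variable {B : Matrix (Fin 24) (Fin 24) ℤ}

theorem coord_injective (h : Good B) {v : Fin 24 → Vec} (hv : IsFrame B v) :
    Function.Injective (coord B v) := by
  refine (injective_iff_map_eq_zero _).2 fun x hx => ?_
  by_contra hne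
  have h1 := sum_coord_sq h hv x
  rw [hx] at h1
  have := h.pos x hne
  simp at h1
  omega

theorem coord_frame {v : Fin 24 → Vec} (hv : IsFrame B v) (i : Fin 24) :
    coord B v (v i) = Pi.single i 8 := by
  funext j
  rw [coord_apply]
  by_cases e : j = i
  · subst e; rw [hv.1 j, Pi.single_eq_same]
  · rw [hv.2.1 i j (Ne.symm e), Pi.single_eq_of_ne e]

theorem shape_range (h : Good B) {v : Fin 24 → Vec} (hv : IsFrame B v)
    (h4 : {x : Vec | ip B x x = 4}.ncard = 196560) : Shape (coord B v).range where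
  sq16 := by
    rintro _ ⟨x, rfl⟩
    rw [sum_coord_sq h hv]
    have := h.even x
    omega
  min32 := by
    rintro _ ⟨x, rfl⟩ hne
    rw [sum_coord_sq h hv]
    have := h.four_le (x := x) (fun e => hne (by rw [e, map_zero]))
    omega
  dot8 := by
    rintro _ ⟨x, rfl⟩ _ ⟨y, rfl⟩
    rw [sum_coord_mul h hv]
    exact dvd_mul_right _ _
  par := by
    rintro _ ⟨x, rfl⟩ i j
    obtain ⟨z, hz⟩ := exists_two_of_cls ((hv.2.2 i).trans (hv.2.2 j).symm)
    rw [coord_apply, coord_apply, hz, ip_add_right, ip_smul_right]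
    exact ⟨ip B x z, by ring⟩
  eight i := ⟨v i, coord_frame hv i⟩
  sub i j := by
    obtain ⟨z, hz⟩ := exists_two_of_cls ((hv.2.2 i).trans (hv.2.2 j).symm)
    refine ⟨z, funext fun k => ?_⟩
    have h1 := congrFun (congrArg (coord B v) hz) k
    rw [map_add, map_zsmul, coord_frame hv, coord_frame hv] at h1
    simp only [Pi.add_apply, Pi.smul_apply, Pi.sub_apply, smul_eq_mul, Pi.single_apply] at h1 ⊢
    split_ifs at h1 ⊢ <;> omega
  count := by
    rw [← h4]
    conv_rhs => rw [← Set.ncard_image_of_injective _ (coord_injective h hv)]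
    congr 1
    ext y
    simp only [Set.mem_ofPred_eq, Set.mem_image, AddMonoidHom.mem_range]
    constructor
    · rintro ⟨⟨x, rfl⟩, hy⟩
      rw [sum_coord_sq h hv] at hy
      exact ⟨x, by omega, rfl⟩
    · rintro ⟨x, hx, rfl⟩
      exact ⟨⟨x, rfl⟩, by rw [sum_coord_sq h hv, hx]; norm_num⟩

theorem exists_leech_equiv (hsymm : B.IsSymm) (hpos : ∀ x : Vec, x ≠ 0 → 0 < x ⬝ᵥ (B *ᵥ x))
    (heven : ∀ x : Vec, (2 : ℤ) ∣ x ⬝ᵥ (B *ᵥ x)) (h2 : ∀ x : Vec, x ⬝ᵥ (B *ᵥ x) ≠ 2)
    (h4 : {x : Vec | x ⬝ᵥ (B *ᵥ x) = 4}.ncard = 196560)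
    (h6 : {x : Vec | x ⬝ᵥ (B *ᵥ x) = 6}.ncard = 16773120)
    (h8 : {x : Vec | x ⬝ᵥ (B *ᵥ x) = 8}.ncard = 398034000) :
    ∃ f : Vec ≃+ leechLattice,
      ∀ x : Vec, sqNorm ((f x : leechLattice) : GolayPt → ℤ) = 8 * (x ⬝ᵥ (B *ᵥ x)) := by
  have h : Good B := ⟨hsymm, hpos, heven, h2⟩
  obtain ⟨v, hv⟩ := exists_frame h h4 h6 h8
  obtain ⟨F, hF, hFM⟩ := (shape_range h hv h4).exists_equiv
  have hmem : ∀ x, F (coord B v x) ∈ leechLattice := fun x => (hFM _).2 (by simp)
  let φ : Vec →+ leechLattice := (F.toAddMonoidHom.comp (coord B v)).codRestrict leechLattice hmem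
  have hφ : ∀ x, (φ x : GolayPt → ℤ) = F (coord B v x) := fun _ => rfl
  have hb : Function.Bijective φ := by
    constructor
    · intro x y e
      have e' := congrArg Subtype.val e
      rw [hφ, hφ] at e'
      exact coord_injective h hv (F.injective e')
    · rintro ⟨z, hz⟩
      obtain ⟨x, hx⟩ := (hFM z).1 hz
      exact ⟨x, Subtype.ext (by rw [hφ, hx, F.apply_symm_apply])⟩
  refine ⟨AddEquiv.ofBijective φ hb, fun x => ?_⟩
  rw [AddEquiv.ofBijective_apply, hφ, hF, sum_coord_sq h hv]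
  rfl

end CfsgLib.LeechUnique
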